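import Cfsg.Agent.H155.TG.WAsm
import Cfsg.Agent.Nodes.WittInst
import Cfsg.Agent.S0295

/-!
# The orthogonal groups in odd dimension (helper155)
-/

set_option autoImplicit false
set_option linter.unusedSectionVars false
set_option linter.unusedSimpArgs false

namespace Cfsg.Agent.H155.TG.Wf

open QuadraticMap
open Cfsg.Agent.TitsThree Cfsg.Agent.TitsThree.Siegel Cfsg.Agent.TitsThree.WittFrame Cfsg.Agent.TitsThree.WittWeyl
open Cfsg.Agent.Nodes Cfsg.Agent.Nodes.WittRoot Cfsg.Agent.TitsThree.FrameCN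
open Cfsg.Agent.Nodes.TypeC (nx)
open Cfsg.Agent.Nodes.WittRGD (Tor)
open Cfsg.Agent.LieClassical Cfsg.Agent.LieClassical.OrthCore Cfsg.Agent.LieClassical.OrthTrans
open Cfsg.Agent.LieClassical.OrthSimple Cfsg.Agent.LieClassical.OrthFinite
open Cfsg.Agent.LieClassical.OrthForms
open Cfsg.Agent.TitsThree.WBridge Cfsg.Agent.TitsThree.KSideO Cfsg.Agent.TitsThree.SiegelGen

section Squares

variable {F : Type*} [Field F] {V : Type*} [AddCommGroup V] [Module F V] {H : HForm F V} {n : ℕ}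
  (Fr : Frame H (Fin n)) {G0 : Subgroup (V ≃ₗ[F] V)} (hV0 : ∀ v, (∀ x, H.h v (Fr.b x) = 0) → v ∈ Fr.V0)
  (hσ : ∀ x, H.σ x = x) (hX : ∀ a b t, Fr.X a b t ∈ G0)

include hV0 hσ hX

/-- squares of cocharacters -/
theorem td_sq_mem (hn : 2 ≤ n) (i : Fin n) (c : Fˣ) : td Fr (ch1 (i, true) (c ^ 2)) ∈ G0 := by
  obtain ⟨j, hj⟩ : ∃ j : Fin n, i ≠ j := by
    have : Nontrivial (Fin n) := Fin.nontrivial_iff_two_le.2 hn
    obtain ⟨j, hj⟩ := exists_ne i
    exact ⟨j, hj.symm⟩
  have h1 : ch1 (i, true) (c ^ 2) = cr (i, true) (j, true) c * cr (i, true) (j, false) c := by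
    have h2 : ch1 (j, true) c * ch1 ((j, false) : Fin n × Bool) c = 1 := by
      unfold ch1 sg1
      simp only [if_true, Bool.false_eq_true, if_false]
      rw [← Pi.mulSingle_mul, mul_inv_cancel, Pi.mulSingle_one]
    unfold cr
    rw [mul_mul_mul_comm, h2, mul_one, ← ch1_mul, pow_two]
  rw [h1, td_mul]
  exact mul_mem (td_cr_mem Fr hV0 hσ hX hj c) (td_cr_mem Fr hV0 hσ hX hj c)

theorem td_sqs_mem (hn : 2 ≤ n) (μ : Fin n → Fˣ) : td Fr (fun i => μ i ^ 2) ∈ G0 := by
  have h1 : (fun i => μ i ^ 2) = ∏ i, ch1 (i, true) (μ i ^ 2) := by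
    have h2 := (Finset.univ_prod_mulSingle (fun i => μ i ^ 2)).symm
    exact h2
  rw [h1]
  refine Finset.prod_induction _ (fun l => td Fr l ∈ G0) (fun a b ha hb => ?_) ?_ fun i _ => ?_
  · show td Fr (a * b) ∈ G0
    rw [td_mul]; exact mul_mem ha hb
  · show td Fr 1 ∈ G0
    rw [td_one]; exact one_mem _
  · exact td_sq_mem Fr hV0 hσ hX hn i _

end Squares

section Odd

variable (n : ℕ) (F : Type*) [Field F]

/-- the frame -/
noncomputable abbrev FrO : Frame (HO (oddForm n F)) (Fin n) := toFrame (wodd n F)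

/-- the anisotropic vector -/
def w0 : Unit ⊕ (Fin n ⊕ Fin n) → F := Pi.single (Sum.inl ()) 1

theorem w0_mem : w0 n F ∈ (FrO n F).V0 := by
  intro j
  simp [w0]

theorem Qw0 : oddForm n F (w0 n F) = 1 := by
  rw [coe_oddForm, quadFormOdd_apply]
  simp [w0]

theorem hw0 : (HO (oddForm n F)).h (w0 n F) (w0 n F) = 2 := by
  rw [HO_h, polar_self', Qw0, mul_one]

variable {n F}

theorem V0_eq {w : Unit ⊕ (Fin n ⊕ Fin n) → F} (hw : w ∈ (FrO n F).V0) : w = w (Sum.inl ()) • w0 n F := by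
  have hw' : ∀ j, w (Sum.inr j) = 0 := hw
  funext j
  rcases j with j | j
  · simp [w0]
  · simp [w0, hw']

variable (n F) in
theorem V0_orth (v : Unit ⊕ (Fin n ⊕ Fin n) → F) (h : ∀ x, (HO (oddForm n F)).h v ((FrO n F).b x) = 0) :
    v ∈ (FrO n F).V0 := WittU.mem_V0_of_orth (wodd n F) (fun i => h (i, true)) (fun i => h (i, false))

/-- the admissible pairs -/
def PO1 (s : F) : (FrO n F).Adm :=
  ⟨s • w0 n F, -s ^ 2, Submodule.smul_mem _ _ (w0_mem n F), by
    show -s ^ 2 = -(oddForm n F) (s • w0 n F)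
    rw [QuadraticMap.map_smul, Qw0]
    simp [pow_two]⟩

theorem PO1_w (s : F) : (PO1 s : (FrO n F).Adm).w = s • w0 n F := rfl
theorem PO1_c (s : F) : (PO1 s : (FrO n F).Adm).c = -s ^ 2 := rfl

theorem PO1_add (s t : F) : (PO1 (s + t) : (FrO n F).Adm) = PO1 s * PO1 t := by
  apply Frame.Adm.ext
  · show (s + t) • w0 n F = s • w0 n F + t • w0 n F
    rw [add_smul]
  · show -(s + t) ^ 2 = -s ^ 2 + -t ^ 2 - (1 : F)⁻¹ * (HO (oddForm n F)).h (t • w0 n F) (s • w0 n F)
    rw [(HO (oddForm n F)).smul_left, (HO (oddForm n F)).smul_right, hw0]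
    show _ = -s ^ 2 + -t ^ 2 - (1 : F)⁻¹ * (t * (s * 2))
    ring

theorem PO1_surj (q : (FrO n F).Adm) : ∃ s, PO1 s = q := by
  refine ⟨q.w (Sum.inl ()), ?_⟩
  have h1 := V0_eq q.ok.1
  have h2 : q.c = -(oddForm n F) q.w := q.ok.2
  apply Frame.Adm.ext
  · exact h1.symm
  · rw [PO1_c, h2]
    nth_rw 2 [h1]
    rw [QuadraticMap.map_smul, Qw0]
    simp [pow_two]

theorem PO1_inj {s t : F} (h : (PO1 s : (FrO n F).Adm) = PO1 t) : s = t := by
  have h1 := congrFun (congrArg Frame.Adm.w h) (Sum.inl ())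
  simpa [PO1_w, w0] using h1

theorem PO1_zero : (PO1 0 : (FrO n F).Adm) = 1 := by
  have := PO1_add (n := n) (F := F) 0 0
  rw [add_zero] at this
  exact mul_eq_left.mp this.symm

theorem PO1_smul (a s : F) : Frame.Adm.smul a (PO1 s : (FrO n F).Adm) = PO1 (a * s) := by
  apply Frame.Adm.ext
  · show a • s • w0 n F = (a * s) • w0 n F
    rw [mul_smul]
  · show a * a * -s ^ 2 = -(a * s) ^ 2
    ring

theorem oσ (x : F) : (HO (oddForm n F)).σ x = x := rfl

theorem o_η (x : Fin n × Bool) : (FrO n F).η x = 1 := by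
  unfold Frame.η
  split_ifs <;> rfl

theorem ZO_neg (x : Fin n × Bool) (s : F) : (FrO n F).Z x (PO1 s) ((FrO n F).b (neg x)) =
    (FrO n F).b (neg x) + s • w0 n F + (-s ^ 2) • (FrO n F).b x := by
  rw [Z_apply_neg, o_η, one_smul, mul_one]
  rfl

theorem ZO_w0 (x : Fin n × Bool) (s : F) : (FrO n F).Z x (PO1 s) (w0 n F) =
    w0 n F - (2 * s) • (FrO n F).b x := by
  rw [Z_apply_V0 _ _ _ (w0_mem n F), PO1_w, (HO (oddForm n F)).smul_right, hw0, oσ]
  show _ - ((1 : F)⁻¹ * (s * 2)) • _ = _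
  congr 2
  ring

/-- isometries with eigenvectors act on the anisotropic part by a sign -/
theorem sign_of {t : (Unit ⊕ (Fin n ⊕ Fin n) → F) ≃ₗ[F] (Unit ⊕ (Fin n ⊕ Fin n) → F)}
    (ht : t ∈ Tor (FrO n F) (E (oddForm n F))) : ∃ μ : F, μ * μ = 1 ∧ t (w0 n F) = μ • w0 n F := by
  have hg := ht.1
  have hQ : ∀ v, oddForm n F (t v) = oddForm n F v := mem_O.1 (E_le_O hg)
  have hiso : ∀ v w, polar (oddForm n F) (t v) (t w) = polar (oddForm n F) v w := fun v w => polar_map (E_le_O hg) v w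
  choose l hl0 hl using ht.2
  have h1 : t (w0 n F) ∈ (FrO n F).V0 := by
    have key : ∀ x, polar (oddForm n F) (t (w0 n F)) ((FrO n F).b x) = 0 := by
      intro x
      have h2 : (FrO n F).b x = (l x)⁻¹ • t ((FrO n F).b x) := by
        rw [hl, smul_smul, inv_mul_cancel₀ (hl0 x), one_smul]
        rfl
      rw [h2, polar_smul_right, hiso]
      have h3 : polar (oddForm n F) (w0 n F) ((FrO n F).b x) = 0 := (FrO n F).h0' x (w0_mem n F)
      rw [h3, smul_zero]
    exact WittU.mem_V0_of_orth (wodd n F) (fun i => key (i, true)) (fun i => key (i, false))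
  have h2 := V0_eq h1
  refine ⟨_, ?_, h2⟩
  have h3 := hQ (w0 n F)
  rw [h2, QuadraticMap.map_smul, Qw0, smul_eq_mul, mul_one] at h3
  exact h3

theorem o_act {l μ m : F} {t : (Unit ⊕ (Fin n ⊕ Fin n) → F) ≃ₗ[F] (Unit ⊕ (Fin n ⊕ Fin n) → F)}
    (ht : t ∈ E (oddForm n F)) {x : Fin n × Bool} (hx : t ((FrO n F).b x) = l • (FrO n F).b x)
    (hμ : μ * μ = 1) (hw : t (w0 n F) = μ • w0 n F) (s : F) (hm : m = l * μ * s) :
    t * (FrO n F).Z x (PO1 s) * t⁻¹ = (FrO n F).Z x (PO1 m) := by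
  have hiso : (HO (oddForm n F)).IsIso t := fun v w => polar_map (E_le_O ht) v w
  rw [conj_Z (FrO n F) hiso hx (PO1 s) (PO1 (μ * s)) ?_ ?_, oσ, PO1_smul, hm]
  · congr 2
    ring
  · rw [PO1_w, PO1_w, map_smul, hw, smul_smul, mul_comm]
  · rw [PO1_c, PO1_c, mul_pow, pow_two μ, hμ, one_mul]

/-- The data at the last node, orthogonal groups in odd dimension. -/
theorem lstO (hn : 2 ≤ n) (h2 : (2 : F) ≠ 0) : Lst (FrO n F) (E (oddForm n F)) (fun s => PO1 s) (fun s => PO1 (-s)) 2 1
    (w0 n F) (-(2 : F)⁻¹) where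
  hk := ⟨by norm_num, le_rfl⟩
  hk' := ⟨le_rfl, by norm_num, by norm_num⟩
  add s t := PO1_add s t
  add' s t := by rw [← PO1_add, neg_add]
  surj q := PO1_surj q
  surj' q := by
    obtain ⟨s, hs⟩ := PO1_surj q
    exact ⟨-s, by rw [_root_.neg_neg]; exact hs⟩
  inj i s h := by
    have h1 := Z_inj (FrO n F) (h.trans ((FrO n F).Z_one (i, true)).symm)
    rw [← PO1_zero] at h1
    exact PO1_inj h1
  inj' i s h := by
    have h1 := Z_inj (FrO n F) (h.trans ((FrO n F).Z_one (i, false)).symm)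
    rw [← PO1_zero] at h1
    exact neg_eq_zero.1 (PO1_inj h1)
  rank1 i a b c hc := by
    have hc0 := c.ne_zero
    have nxx : ((i, true) : Fin n × Bool) ≠ (i, false) := by simp
    have X1 : ∀ s, (FrO n F).Z (i, true) (PO1 s) ((FrO n F).b (i, true)) = (FrO n F).b (i, true) :=
      fun s => Z_apply_of_ne (FrO n F) (by simp [neg]) _
    have X2 : ∀ s, (FrO n F).Z (i, true) (PO1 s) ((FrO n F).b (i, false)) =
        (FrO n F).b (i, false) + s • w0 n F + (-s ^ 2) • (FrO n F).b (i, true) := fun s => ZO_neg (i, true) s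
    have X3 : ∀ s, (FrO n F).Z (i, true) (PO1 s) (w0 n F) = w0 n F - (2 * s) • (FrO n F).b (i, true) :=
      fun s => ZO_w0 (i, true) s
    have Y1 : ∀ s, (FrO n F).Z (i, false) (PO1 s) ((FrO n F).b (i, false)) = (FrO n F).b (i, false) :=
      fun s => Z_apply_of_ne (FrO n F) (by simp [neg]) _
    have Y2 : ∀ s, (FrO n F).Z (i, false) (PO1 s) ((FrO n F).b (i, true)) =
        (FrO n F).b (i, true) + s • w0 n F + (-s ^ 2) • (FrO n F).b (i, false) := fun s => ZO_neg (i, false) s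
    have Y3 : ∀ s, (FrO n F).Z (i, false) (PO1 s) (w0 n F) = w0 n F - (2 * s) • (FrO n F).b (i, false) :=
      fun s => ZO_w0 (i, false) s
    have T1 : td (FrO n F) (ch1 (i, true) (c ^ 2)) ((FrO n F).b (i, true)) = (c : F) ^ 2 • (FrO n F).b (i, true) := by
      rw [td_b, ev_ch1, if_pos rfl, Units.val_pow_eq_pow_val]
    have T2 : td (FrO n F) (ch1 (i, true) (c ^ 2)) ((FrO n F).b (i, false)) = ((c : F) ^ 2)⁻¹ • (FrO n F).b (i, false) := by
      have e : ((i, false) : Fin n × Bool) = neg (i, true) := rfl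
      rw [td_b, ev_ch1, if_neg nxx.symm, if_pos e, Units.val_inv_eq_inv_val, Units.val_pow_eq_pow_val]
    have T3 : td (FrO n F) (ch1 (i, true) (c ^ 2)) (w0 n F) = w0 n F := td_V0 _ _ (w0_mem n F)
    apply ext_frame' (FrO n F) (V0_orth n F)
    · intro z
      rw [WittWeyl.mul_apply', WittWeyl.mul_apply', WittWeyl.mul_apply']
      by_cases h1 : z.1 = i
      · obtain ⟨j, s⟩ := z
        simp only at h1
        subst h1
        cases s
        · simp only [X1, X2, X3, Y1, Y2, Y3, T1, T2, T3, map_add, map_sub, map_smul]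
          match_scalars <;> field_simp <;> (try rw [hc]) <;> ring
        · simp only [X1, X2, X3, Y1, Y2, Y3, T1, T2, T3, map_add, map_sub, map_smul]
          match_scalars <;> field_simp <;> (try rw [hc]) <;> ring
      · have e1 : ∀ s p, (FrO n F).Z (i, s) p ((FrO n F).b z) = (FrO n F).b z := fun s p =>
          Z_apply_of_ne (FrO n F) (by rintro rfl; exact h1 rfl) p
        have e3 : td (FrO n F) (ch1 (i, true) (c ^ 2)) ((FrO n F).b z) = (FrO n F).b z := by
          rw [td_b, ev_ch1, if_neg (by rintro rfl; exact h1 rfl), if_neg (by rintro rfl; exact h1 rfl)]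
          simp
        simp only [e1, e3]
    · intro w hw
      rw [V0_eq hw]
      rw [WittWeyl.mul_apply', WittWeyl.mul_apply', WittWeyl.mul_apply']
      simp only [X1, X2, X3, Y1, Y2, Y3, T1, T2, T3, map_add, map_sub, map_smul]
      match_scalars <;> field_simp <;> (try rw [hc]) <;> ring
  act i t ht := by
    obtain ⟨l, hl0, hl, hln⟩ := tor_eig (FrO n F) (fun g hg v w => polar_map (E_le_O hg) v w) oσ ht
    obtain ⟨μ, hμ, hw⟩ := sign_of ht
    have hμ0 : μ ≠ 0 := by rintro rfl; simp at hμ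
    refine ⟨l (i, true) * μ, mul_ne_zero (hl0 _) hμ0, fun s => o_act ht.1 (hl _) hμ hw s rfl, fun s =>
      o_act ht.1 (hl _) hμ hw _ ?_⟩
    have h1 : l (i, false) = (l (i, true))⁻¹ := hln (i, true)
    rw [h1, mul_inv, show μ⁻¹ = μ from (eq_inv_of_mul_eq_one_left hμ).symm]
    ring
  actd i l s hl := by
    have h1 := td_b (FrO n F) l (i, true)
    have h2 : (ev l ((i, true) : Fin n × Bool) : F) = (l i : F) := rfl
    rw [h2] at h1
    exact o_act (μ := 1) hl h1 (mul_one 1) (by rw [td_V0 _ _ (w0_mem n F), one_smul]) _ (by ring)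
  last i c := td_sq_mem (FrO n F) (V0_orth n F) oσ (X_mem (wodd n F)) hn i c
  hw := Or.inl rfl
  coX i x y t hxy hi := by
    unfold co
    rw [X_apply (FrO n F) hxy]
    have e1 : ∀ z, (HO (oddForm n F)).h ((FrO n F).b z) (w0 n F) = 0 := fun z => (FrO n F).h0 z _ (w0_mem n F)
    rw [(HO (oddForm n F)).sub_left, (HO (oddForm n F)).add_left, (HO (oddForm n F)).smul_left,
      (HO (oddForm n F)).smul_left, e1, e1, e1]
    ring
  coZ i x q hx _ := by
    unfold co
    rw [Z_apply_of_ne (FrO n F) (fun h => hx ?_), sub_self]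
    rw [← WittFrame.neg_neg x, ← h]
    rfl
  coS i s hi := by
    unfold co
    have h3 := ZO_neg (i, false) (-s)
    have e : neg ((i, false) : Fin n × Bool) = (i, true) := rfl
    rw [e] at h3
    have e1 : ∀ z, (HO (oddForm n F)).h ((FrO n F).b z) (w0 n F) = 0 := fun z => (FrO n F).h0 z _ (w0_mem n F)
    rw [h3, (HO (oddForm n F)).add_left, (HO (oddForm n F)).add_left, (HO (oddForm n F)).smul_left,
      (HO (oddForm n F)).smul_left, e1, e1, hw0]
    field_simp
    ring
  coL i hi v' hv' := by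
    refine hv'.2 ?_ _ (w0_mem n F)
    unfold hC
    simp only [if_true]
    have h2 : (n : ℤ) = i.val + 1 := by have := i.2; omega
    rw [h2]
    push_cast
    linarith
  pvX i j hj hij := by
    have e3 : ∀ s, (FrO n F).X (i, true) (nx i) s (w0 n F) = w0 n F + s • 0 := fun s => by
      rw [X_apply_V0 (FrO n F) (nx_ne (by have := j.2; omega)) (w0_mem n F), smul_zero, add_zero]
    simp only [e3]
    exact PV.lin _ _
  pvX0 i j hj hij := by
    have e3 : ∀ s, (FrO n F).X (i, true) (nx i) s (w0 n F) = w0 n F := fun s => by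
      rw [X_apply_V0 (FrO n F) (nx_ne (by have := j.2; omega)) (w0_mem n F)]
    simp only [e3]
    exact PV.const _
  pvZ i := by
    have e3 : ∀ s, (FrO n F).Z (i, true) (PO1 s) ((FrO n F).b (i, false)) =
        (FrO n F).b (i, false) + s • w0 n F + s ^ 2 • (-(FrO n F).b (i, true)) := fun s => by
      have := ZO_neg (i, true) s
      rw [smul_neg, ← neg_smul]
      exact this
    simp only [e3]
    exact PV.quad _ _ _

end Odd

/-- a unit of order at least eight -/
theorem exists_gen_unit {F : Type*} [Field F] [Finite F] (hF : 9 ≤ Nat.card F) :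
    ∃ a : Fˣ, ∀ z : ℤ, z ≠ 0 → -8 < z → z < 8 → a ^ z ≠ 1 := by
  obtain ⟨t, ht, hpow⟩ := exists_gen hF
  refine ⟨Units.mk0 t ht, ?_⟩
  have key : ∀ z : ℤ, 0 < z → z < 8 → (Units.mk0 t ht) ^ z ≠ 1 := by
    intro z h0 h8 h
    apply hpow z h0 h8
    have h1 := congrArg Units.val h
    rwa [Units.val_zpow_eq_zpow_val, Units.val_mk0, Units.val_one] at h1
  intro z h0 h1 h2 h
  rcases lt_or_gt_of_ne h0 with h3 | h3
  · apply key (-z) (by omega) (by omega)
    rw [zpow_neg, h, inv_one]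
  · exact key z h3 h2 h

/-- **The square of a conjugacy class is `PΩ_{2n+1}`.** -/
theorem main_podd {n : ℕ} (hn : 3 ≤ n) {F : Type*} [Field F] [Finite F] (hF : 9 ≤ Nat.card F) (hodd : Odd (Nat.card F)) :
    ∃ c : Cfsg.POmega F (Cfsg.quadFormOdd n F), ∀ g, ∃ x y, g = (x * c * x⁻¹) * (y * c * y⁻¹) := by
  classical
  obtain ⟨p, hpc⟩ := CharP.exists F
  have hpp : p.Prime := (CharP.char_is_prime_or_zero F p).resolve_right (CharP.char_ne_zero_of_finite F p)
  have : Fact p.Prime := ⟨hpp⟩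
  have := Fintype.ofFinite F
  have hsimple : IsSimpleGroup (Cfsg.POmega F (Cfsg.quadFormOdd n F)) :=
    Cfsg.Agent.S0295.result (by rwa [Nat.card_eq_fintype_card] at hodd) n hn
  have h2 : (2 : F) ≠ 0 := by
    intro h2
    have hc2 : CharP F 2 := CharTwo.of_one_ne_zero_of_two_eq_zero one_ne_zero h2
    have hr : ringChar F = 2 := ringChar.eq_iff.2 hc2
    have := FiniteField.even_card_of_char_two hr
    rw [Nat.card_eq_fintype_card, Nat.odd_iff] at hodd
    omega
  rw [← coe_oddForm] at hsimple ⊢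
  have hG : Good (oddForm n F) := by
    apply good_of_finite (nondeg_oddForm n F h2)
    rw [Module.finrank_fintype_fun_eq_card, Fintype.card_sum, Fintype.card_sum, Fintype.card_fin,
      Fintype.card_unit]
    omega
  have hp : (PO1 1 : (FrO n F).Adm).c ≠ 0 := by
    rw [PO1_c]
    simp
  obtain ⟨a, hpow⟩ := exists_gen_unit hF
  set μ : Fin n → Fˣ := fun i => if i.val + 1 < n then a else a ^ 2 with hμ
  set la : Fin n → Fˣ := fun i => μ i ^ 2 with hla
  have hev : ∀ x : Fin n × Bool, ev la x = a ^ ((if x.2 then 1 else -1) * (if x.1.val + 1 < n then 2 else 4) : ℤ) := by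
    rintro ⟨i, s⟩
    unfold ev
    rw [hla, hμ]
    cases s <;> by_cases h : i.val + 1 < n
    · simp only [h, Bool.false_eq_true, if_false, if_true]
      norm_num [zpow_neg]
    · simp only [h, Bool.false_eq_true, if_false, if_true]
      norm_num [zpow_neg, ← pow_mul]
    · simp only [h, Bool.false_eq_true, if_false, if_true]
      norm_num
    · simp only [h, Bool.false_eq_true, if_false, if_true]
      norm_num [← pow_mul]
  have hA : Amb (FrO n F) (E (oddForm n F)) := WittInst.amb_O_of_two _ h2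
  have hla' : td (FrO n F) la ∈ E (oddForm n F) := td_sqs_mem (FrO n F) hA.V0 oσ (X_mem (wodd n F)) (by omega) μ
  refine mainC (M := model (wodd n F) hG ⟨_, hp⟩) (by omega) hA (p := p) hF (lstO (F := F) (n := n) (by omega) h2)
    oσ (m := n - 1) (by omega) (by omega) la hla' (fun i j => ?_) (fun δ => ?_) ?_ ?_ (p0 := PO1 1) hp
  · have h3 := i.2
    have h4 := j.2
    rw [hla, hμ]
    show (if (ci _ i : Fin n).val + 1 < n then a else a ^ 2) ^ 2 = (if (ci _ j : Fin n).val + 1 < n then a else a ^ 2) ^ 2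
    have e1 : (ci (by omega : n - 1 ≤ n) i).val + 1 < n := by show i.val + 1 < n; omega
    have e2 : (ci (by omega : n - 1 ≤ n) j).val + 1 < n := by show j.val + 1 < n; omega
    simp only [e1, e2, if_true]
  · have hne : ((⟨0, by omega⟩, true) : Fin n × Bool).1 ≠ ((⟨n - 1, by omega⟩, false) : Fin n × Bool).1 := by
      intro h
      have := congrArg Fin.val h
      simp only at this
      omega
    refine ⟨cr (⟨0, by omega⟩, true) (⟨n - 1, by omega⟩, false) δ,
      td_cr_mem (FrO n F) hA.V0 oσ (X_mem (wodd n F)) hne δ, fun i => ?_⟩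
    have h3 := i.2
    have h4 : (ci (by omega : n - 1 ≤ n) i) ≠ ⟨n - 1, by omega⟩ := by
      intro h
      have := congrArg Fin.val h
      have e : (ci (by omega : n - 1 ≤ n) i).val = i.val := rfl
      rw [e] at this
      simp only at this
      omega
    unfold cr ch1 sg1 dl
    rw [Pi.mul_apply, Pi.mulSingle_eq_of_ne h4, mul_one]
    by_cases h5 : i.val = 0
    · have h6 : ci (by omega : n - 1 ≤ n) i = ⟨0, by omega⟩ := Fin.ext h5
      rw [h6, if_pos h5]
      simp
    · have h6 : ci (by omega : n - 1 ≤ n) i ≠ ⟨0, by omega⟩ := by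
        intro h
        exact h5 (congrArg Fin.val h)
      rw [Pi.mulSingle_eq_of_ne h6, if_neg h5]
  · rintro ⟨i, s⟩ ⟨j, s'⟩ hij h
    have h3 : ev la (i, s) * ev la (j, s') = 1 := by
      apply Units.ext
      rw [Units.val_mul]
      exact h
    rw [hev, hev, ← zpow_add] at h3
    have hne : i.val ≠ j.val := fun e => hij (Fin.ext e)
    have hi := i.2
    have hj := j.2
    have h4 : ∀ z : ℤ, a ^ z = 1 → z = 0 ∨ z ≤ -8 ∨ 8 ≤ z := by
      intro z hz
      by_contra hc
      push Not at hc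
      exact hpow z hc.1 hc.2.1 hc.2.2 hz
    have h5 := h4 _ h3
    show s ≠ s' ∧ i.val < n - 1 ∧ j.val < n - 1
    simp only at h5
    cases s <;> cases s' <;> by_cases h6 : i.val + 1 < n <;> by_cases h7 : j.val + 1 < n <;>
      simp only [h6, h7, if_true, if_false, Bool.false_eq_true] at h5 <;>
      first
        | (exfalso; omega)
        | exact ⟨by simp, by omega, by omega⟩
  · rintro x q hq
    obtain ⟨s, rfl⟩ := PO1_surj q
    rw [PO1_smul] at hq
    have h3 := PO1_inj hq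
    by_cases h0 : s = 0
    · rw [h0, PO1_zero]
    · exfalso
      have h4 : (ev la x : F) = 1 := (mul_eq_right₀ h0).1 h3
      have h5 : ev la x = 1 := Units.ext h4
      rw [hev] at h5
      refine hpow _ ?_ ?_ ?_ h5 <;> split_ifs <;> norm_num

end Cfsg.Agent.H155.TG.Wf
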