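import Cfsg.Agent.H155.TG.WOdd
import Cfsg.Agent.S0296

/-!
# The orthogonal groups of plus type (helper155)
-/

set_option autoImplicit false
set_option linter.unusedSectionVars false
set_option linter.unusedSimpArgs false

namespace Cfsg.Agent.H155.TG.Wf

open QuadraticMap
open Cfsg.Agent.ChevalleyStructure.CoxeterGeom Cfsg.Agent.Tits.Roots
open Cfsg.Agent.TitsThree Cfsg.Agent.TitsThree.Siegel Cfsg.Agent.TitsThree.WittFrame Cfsg.Agent.TitsThree.WittWeyl
open Cfsg.Agent.Nodes Cfsg.Agent.Nodes.WittRoot Cfsg.Agent.TitsThree.FrameCN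
open Cfsg.Agent.Nodes.TypeD
open Cfsg.Agent.Nodes.WittRGD (Tor)
open Cfsg.Agent.LieClassical Cfsg.Agent.LieClassical.OrthCore Cfsg.Agent.LieClassical.OrthTrans
open Cfsg.Agent.LieClassical.OrthSimple Cfsg.Agent.LieClassical.OrthFinite
open Cfsg.Agent.LieClassical.OrthForms
open Cfsg.Agent.TitsThree.WBridge Cfsg.Agent.TitsThree.KSideO Cfsg.Agent.TitsThree.SiegelGen

theorem hhD_mem {F : Type*} [Field F] {V : Type*} [AddCommGroup V] [Module F V] {H : HForm F V} {n : ℕ}
    (Fr : Frame H (Fin (n + 2))) {G0 : Subgroup (V ≃ₗ[F] V)}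
    (hV0 : ∀ v, (∀ x, H.h v (Fr.b x) = 0) → v ∈ Fr.V0) (hσ : ∀ x, H.σ x = x) (hX : ∀ a b t, Fr.X a b t ∈ G0)
    (i : Fin (n + 2)) (c : F) : hhD Fr i c ∈ G0 := by
  by_cases hc : c = 0
  · unfold hhD
    rw [dif_neg (by rw [hc]; simp)]
    exact one_mem _
  · rw [hhD_eq Fr i hc]
    exact td_cr_mem Fr hV0 hσ hX (ok_nx i) _

/-- **The square of a conjugacy class is `PΩ⁺_{2(n+2)}`.** -/
theorem main_pplus' {n m : ℕ} (hn : 2 ≤ n) (hm : m = n + 2) {F : Type*} [Field F] [Finite F] (hF : 9 ≤ Nat.card F) :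
    ∃ c : Cfsg.POmega F (Cfsg.quadFormPlus m F), ∀ g, ∃ x y, g = (x * c * x⁻¹) * (y * c * y⁻¹) := by
  classical
  obtain ⟨p, hpc⟩ := CharP.exists F
  have hpp : p.Prime := (CharP.char_is_prime_or_zero F p).resolve_right (CharP.char_ne_zero_of_finite F p)
  have : Fact p.Prime := ⟨hpp⟩
  have := Fintype.ofFinite F
  have hsimple : IsSimpleGroup (Cfsg.POmega F (Cfsg.quadFormPlus m F)) :=
    Cfsg.Agent.S0296.result m (by omega)
  rw [← coe_plusForm] at hsimple ⊢
  have hG : Good (plusForm m F) := by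
    apply good_of_finite (nondeg_plusForm m F)
    rw [Module.finrank_fintype_fun_eq_card, Fintype.card_sum, Fintype.card_fin]
    omega
  subst hm
  obtain ⟨a, hpow⟩ := exists_gen_unit hF
  have h4 : ∀ z : ℤ, a ^ z = 1 → z = 0 ∨ z ≤ -8 ∨ 8 ≤ z := by
    intro z hz
    by_contra hc
    push Not at hc
    exact hpow z hc.1 hc.2.1 hc.2.2 hz
  set Fr : Frame (HO (plusForm (n + 2) F)) (Fin (n + 2)) := toFrame (WittInst.wplus (n + 2) F) with hFr
  set G0 := E (plusForm (n + 2) F) with hG0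
  have hA : Amb Fr G0 := WittInst.amb_plus (n + 2)
  have h0 : ∀ p : Fr.Adm, p = 1 := WittInst.adm_plus (n + 2)
  have hσ : ∀ x, (HO (plusForm (n + 2) F)).σ x = x := fun x => rfl
  have hX : ∀ a b t, Fr.X a b t ∈ G0 := hA.X_mem
  have hfinY : Finite ((Fin (n + 2) ⊕ Fin (n + 2) → F) ≃ₗ[F] (Fin (n + 2) ⊕ Fin (n + 2) → F)) :=
    Finite.of_injective (fun g : (Fin (n + 2) ⊕ Fin (n + 2) → F) ≃ₗ[F] (Fin (n + 2) ⊕ Fin (n + 2) → F) =>
      (g : (Fin (n + 2) ⊕ Fin (n + 2) → F) → (Fin (n + 2) ⊕ Fin (n + 2) → F))) DFunLike.coe_injective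
  let cs := (M n).toCoxeterSystem
  have hfinW : Finite (M n).Group := finite_W cs
  have R := WittAll.rgdD hA (p := p) h0 cs
  have E1 := fdD Fr cs hA.V0 hσ hX hA.iso R
  set μ : Fin (n + 2) → Fˣ := fun i => if i.val < n + 1 then a else 1 with hμ
  set la : Fin (n + 2) → Fˣ := fun i => μ i ^ 2 with hla
  have hev : ∀ x : Fin (n + 2) × Bool, ev la x =
      a ^ ((if x.2 then 1 else -1) * (if x.1.val < n + 1 then 2 else 0) : ℤ) := by
    rintro ⟨i, s⟩
    unfold ev
    rw [hla, hμ]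
    cases s <;> by_cases h : i.val < n + 1
    · simp only [h, Bool.false_eq_true, if_false, if_true]
      norm_num [zpow_neg]
    · simp only [h, Bool.false_eq_true, if_false, if_true]
      norm_num [zpow_neg, ← pow_mul]
    · simp only [h, Bool.false_eq_true, if_false, if_true]
      norm_num
    · simp only [h, Bool.false_eq_true, if_false, if_true]
      norm_num [← pow_mul]
  have hla' : td Fr la ∈ G0 := td_sqs_mem Fr hA.V0 hσ hX (by omega) μ
  have hmn' : n + 1 ≤ n + 2 := by omega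
  have hci : ∀ i : Fin (n + 1), (ci hmn' i).val < n + 1 := fun i => i.2
  have c1 : la (Fin.last (n + 1)) = 1 := by
    rw [hla, hμ]
    simp
  have c2 : ∀ i j : Fin (n + 1), la (ci hmn' i) = la (ci hmn' j) := by
    intro i j
    rw [hla, hμ]
    show (if (ci _ i : Fin (n + 2)).val < n + 1 then a else 1) ^ 2 = (if (ci _ j : Fin (n + 2)).val < n + 1 then a else 1) ^ 2
    simp only [hci, if_true]
  have c3 : ∀ δ : Fˣ, ∃ l' : Fin (n + 2) → Fˣ, td Fr l' ∈ G0 ∧ ∀ i : Fin (n + 1), l' (ci hmn' i) = dl δ i := by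
    intro δ
    have hne : ((⟨0, by omega⟩, true) : Fin (n + 2) × Bool).1 ≠ ((Fin.last (n + 1), false) : Fin (n + 2) × Bool).1 := by
      intro h
      have := congrArg Fin.val h
      simp at this
    refine ⟨cr (⟨0, by omega⟩, true) (Fin.last (n + 1), false) δ, td_cr_mem Fr hA.V0 hσ hX hne δ, fun i => ?_⟩
    have h4 : (ci hmn' i) ≠ Fin.last (n + 1) := by
      intro h
      have h5 := hci i
      rw [h, Fin.val_last] at h5
      omega
    unfold cr ch1 sg1 dl
    rw [Pi.mul_apply, Pi.mulSingle_eq_of_ne h4, mul_one]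
    by_cases h5 : i.val = 0
    · have h6 : ci hmn' i = ⟨0, by omega⟩ := Fin.ext h5
      rw [h6, if_pos h5]
      simp
    · have h6 : ci hmn' i ≠ ⟨0, by omega⟩ := by
        intro h
        exact h5 (congrArg Fin.val h)
      rw [Pi.mulSingle_eq_of_ne h6, if_neg h5]
  have c4 : ∀ a b : Fin (n + 2) × Bool, a.1 ≠ b.1 → (ev la a : F) * ev la b = 1 →
      a.2 ≠ b.2 ∧ a.1.val < n + 1 ∧ b.1.val < n + 1 := by
    rintro ⟨i, s⟩ ⟨j, s'⟩ hij h
    have h3 : ev la (i, s) * ev la (j, s') = 1 := by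
      apply Units.ext
      rw [Units.val_mul]
      exact h
    rw [hev, hev, ← zpow_add] at h3
    have hne : i.val ≠ j.val := fun e => hij (Fin.ext e)
    have hi := i.2
    have hj := j.2
    have h5 := h4 _ h3
    show s ≠ s' ∧ i.val < n + 1 ∧ j.val < n + 1
    simp only at h5
    cases s <;> cases s' <;> by_cases h6 : i.val < n + 1 <;> by_cases h7 : j.val < n + 1 <;>
      simp only [h6, h7, if_true, if_false, Bool.false_eq_true] at h5 <;>
      first
        | (exfalso; omega)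
        | exact ⟨by simp, by omega, by omega⟩
  obtain ⟨L, hreal⟩ := ldD Fr cs hA.V0 hσ hA.iso hX (m := n + 1) (by omega) hmn' le_rfl la hla' c1 c2 c3 c4
  exact asmW R G0 (fun r _ => WittInst.rgD_le (WittInst.wplus (n + 2) F) hA r) (fun t ht => ht.1)
      (fun i => WittRGDD.nn_mem hA i) (fun i => WittRGDD.nn_mem_sup i) E1 (hhD_mem Fr hA.V0 hσ hX)
      (phW_mem Fr hA.V0 hσ hX hmn') L hreal (toPOmega hG) (WittInst.ker_toPOmega hG) hF hDDn
      (fun S h1 h2 => connD S h1 h2 (by omega))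
      (WittInst.G1D_eq_top (WittInst.wplus (n + 2) F) (toPOmega hG) (toPOmega_surjective hG) (WittInst.adm_plus _) cs)
      ⟨0, by omega⟩

/-- **The square of a conjugacy class is `PΩ⁺_{2m}`.** -/
theorem main_pplus {m : ℕ} (hm : 4 ≤ m) {F : Type*} [Field F] [Finite F] (hF : 9 ≤ Nat.card F) :
    ∃ c : Cfsg.POmega F (Cfsg.quadFormPlus m F), ∀ g, ∃ x y, g = (x * c * x⁻¹) * (y * c * y⁻¹) := by
  obtain ⟨n, hn⟩ : ∃ n, m = n + 2 := ⟨m - 2, by omega⟩
  exact main_pplus' (n := n) (by omega) hn hF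

end Cfsg.Agent.H155.TG.Wf
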