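import Cfsg.Agent.H155.TG.WAsm
import Cfsg.Agent.Nodes.WittInst
import Cfsg.Agent.S0270

/-!
# The symplectic groups (helper155)
-/

set_option autoImplicit false
set_option linter.unusedSectionVars false
set_option linter.unusedSimpArgs false

namespace Cfsg.Agent.H155.TG.Wf

open Cfsg.Agent.TitsThree Cfsg.Agent.TitsThree.Siegel Cfsg.Agent.TitsThree.WittFrame Cfsg.Agent.TitsThree.WittWeyl
open Cfsg.Agent.Nodes Cfsg.Agent.Nodes.WittRoot Cfsg.Agent.TitsThree.FrameCN
open Cfsg.Agent.Nodes.TypeC (nx)
open Cfsg.Agent.Nodes.WittRGD (Tor)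
open Cfsg.Agent.TitsThree.SpIdent

variable {F : Type*} [Field F] {n : ℕ}

theorem spσ (x : F) : (form n F).σ x = x := rfl

theorem sp_adm_w (q : (frame n F).Adm) : q.w = 0 := q.ok

theorem Z_sp_neg (x : Fin n × Bool) (c : F) : (frame n F).Z x (adm c) ((frame n F).b (neg x)) =
    (frame n F).b (neg x) + (c * (frame n F).η x) • (frame n F).b x := by
  rw [Z_apply_neg]
  have h1 : (adm c : (frame n F).Adm).w = 0 := rfl
  rw [h1, smul_zero, add_zero]
  rfl

theorem sp_η_t (i : Fin n) : (frame n F).η (i, true) = -1 := rfl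
theorem sp_η_f (i : Fin n) : (frame n F).η (i, false) = 1 := rfl

theorem sp_act {l m : F} {t : (Fin n ⊕ Fin n → F) ≃ₗ[F] (Fin n ⊕ Fin n → F)} (ht : (form n F).IsIso t)
    {x : Fin n × Bool} (hx : t ((frame n F).b x) = l • (frame n F).b x) (c : F) (hm : m = l ^ 2 * c) :
    t * (frame n F).Z x (adm c) * t⁻¹ = (frame n F).Z x (adm m) := by
  have h1 : t (adm c : (frame n F).Adm).w = (adm c : (frame n F).Adm).w := by
    show t 0 = 0
    exact map_zero t
  rw [conj_Z (frame n F) ht hx (adm c) (adm c) h1 rfl, hm]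
  congr 1
  apply Frame.Adm.ext
  · show _ • (0 : Fin n ⊕ Fin n → F) = 0
    rw [smul_zero]
  · rw [Frame.Adm.smul_c, spσ, spσ]
    show l * l * c = _
    ring_nf
    rfl

/-- The data at the last node, symplectic groups. -/
theorem lstSp (hn : 1 ≤ n) : Lst (frame n F) (isos (form n F)) (fun s => adm (-s)) (fun s => adm s) 1 2
    ((frame n F).b (⟨n - 1, by omega⟩, true)) (-1) where
  hk := ⟨le_rfl, by norm_num⟩
  hk' := ⟨by norm_num, le_rfl, by norm_num⟩
  add s t := by rw [neg_add, adm_add]
  add' s t := adm_add _ _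
  surj q := ⟨-q.c, by rw [_root_.neg_neg]; exact (eq_adm q).symm⟩
  surj' q := ⟨q.c, (eq_adm q).symm⟩
  inj i s h := by
    have h1 := Z_inj (frame n F) (h.trans ((frame n F).Z_one (i, true)).symm)
    have h2 := congrArg Frame.Adm.c h1
    have h3 : -s = 0 := h2
    exact neg_eq_zero.1 h3
  inj' i s h := by
    have h1 := Z_inj (frame n F) (h.trans ((frame n F).Z_one (i, false)).symm)
    exact congrArg Frame.Adm.c h1
  rank1 i a b c hc := by
    have hc0 := c.ne_zero
    have nxx : ((i, true) : Fin n × Bool) ≠ (i, false) := by simp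
    have X1 : ∀ s, (frame n F).Z (i, true) (adm s) ((frame n F).b (i, true)) = (frame n F).b (i, true) :=
      fun s => Z_apply_of_ne (frame n F) (by simp [neg]) _
    have X2 : ∀ s, (frame n F).Z (i, true) (adm s) ((frame n F).b (i, false)) =
        (frame n F).b (i, false) + (-s) • (frame n F).b (i, true) := fun s => by
      have := Z_sp_neg (i, true) s
      rw [sp_η_t, mul_neg_one] at this
      exact this
    have Y1 : ∀ s, (frame n F).Z (i, false) (adm s) ((frame n F).b (i, false)) = (frame n F).b (i, false) :=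
      fun s => Z_apply_of_ne (frame n F) (by simp [neg]) _
    have Y2 : ∀ s, (frame n F).Z (i, false) (adm s) ((frame n F).b (i, true)) =
        (frame n F).b (i, true) + s • (frame n F).b (i, false) := fun s => by
      have := Z_sp_neg (i, false) s
      rw [sp_η_f, mul_one] at this
      exact this
    have T1 : td (frame n F) (ch1 (i, true) (c ^ 1)) ((frame n F).b (i, true)) = (c : F) • (frame n F).b (i, true) := by
      rw [td_b, ev_ch1, if_pos rfl, pow_one]
    have T2 : td (frame n F) (ch1 (i, true) (c ^ 1)) ((frame n F).b (i, false)) = (c : F)⁻¹ • (frame n F).b (i, false) := by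
      have e : ((i, false) : Fin n × Bool) = neg (i, true) := rfl
      rw [td_b, ev_ch1, if_neg nxx.symm, if_pos e, pow_one, Units.val_inv_eq_inv_val]
    apply ext_frame' (frame n F) (WittU.amb_Sp.V0)
    · intro z
      rw [WittWeyl.mul_apply', WittWeyl.mul_apply', WittWeyl.mul_apply']
      by_cases h1 : z.1 = i
      · obtain ⟨j, s⟩ := z
        simp only at h1
        subst h1
        cases s
        · simp only [X1, X2, Y1, Y2, T1, T2, map_add, map_smul]
          match_scalars <;> field_simp <;> (try rw [hc]) <;> ring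
        · simp only [X1, X2, Y1, Y2, T1, T2, map_add, map_smul]
          match_scalars <;> field_simp <;> (try rw [hc]) <;> ring
      · have e1 : ∀ s p, (frame n F).Z (i, s) p ((frame n F).b z) = (frame n F).b z := fun s p =>
          Z_apply_of_ne (frame n F) (by rintro rfl; exact h1 rfl) p
        have e3 : td (frame n F) (ch1 (i, true) (c ^ 1)) ((frame n F).b z) = (frame n F).b z := by
          rw [td_b, ev_ch1, if_neg (by rintro rfl; exact h1 rfl), if_neg (by rintro rfl; exact h1 rfl)]
          simp
        simp only [e1, e3]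
    · intro w hw
      have hw' : w = 0 := (Submodule.mem_bot F).1 hw
      rw [hw', map_zero, map_zero]
  act i t ht := by
    obtain ⟨l, hl0, hl, hln⟩ := tor_eig (frame n F) (fun g hg => hg) spσ ht
    refine ⟨l (i, true) ^ 2, pow_ne_zero 2 (hl0 _), fun s => sp_act ht.1 (hl _) _ (by ring), fun s =>
      sp_act ht.1 (hl _) _ ?_⟩
    have h1 : l (i, false) = (l (i, true))⁻¹ := hln (i, true)
    rw [h1, inv_pow]
  actd i l s hl := by
    have h1 := td_b (frame n F) l (i, true)
    have h2 : (ev l ((i, true) : Fin n × Bool) : F) = (l i : F) := rfl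
    rw [h2] at h1
    exact sp_act hl h1 _ (by ring)
  last i c := iso_td (frame n F) (WittU.amb_Sp.V0) spσ _
  hw := Or.inr sp_adm_w
  coX i x y t hxy hi := by
    have hi' : i = ⟨n - 1, by omega⟩ := Fin.ext (by show i.val = n - 1; have := i.2; omega)
    rw [← hi']
    unfold co
    by_cases h1 : (i, true) = neg x
    · have h2 := X_apply_neg' (frame n F) hxy t
      rw [h1, h2, (form n F).sub_left, sub_sub_cancel_left, (form n F).smul_left]
      have h3 : (form n F).h ((frame n F).b y) ((frame n F).b (neg x)) = 0 :=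
        (frame n F).hb_of_ne (y := neg x) hxy.symm
      rw [h3, mul_zero, neg_zero]
    · by_cases h1' : (i, true) = neg y
      · have h2 := X_apply_neg (frame n F) hxy t
        rw [h1', h2, (form n F).add_left, add_sub_cancel_left, (form n F).smul_left]
        have h3 : (form n F).h ((frame n F).b x) ((frame n F).b (neg y)) = 0 :=
          (frame n F).hb_of_ne (y := neg y) hxy
        rw [h3, mul_zero]
      · rw [X_apply_of_ne (frame n F) hxy h1 h1', sub_self]
  coZ i x q hx _ := by
    unfold co
    rw [Z_apply_of_ne (frame n F) (fun h => hx ?_), sub_self]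
    rw [← WittFrame.neg_neg x, ← h]
    rfl
  coS i s hi := by
    have hi' : i = ⟨n - 1, by omega⟩ := Fin.ext (by show i.val = n - 1; have := i.2; omega)
    rw [← hi']
    unfold co
    have h2 := Z_sp_neg (i, false) s
    have e : neg ((i, false) : Fin n × Bool) = (i, true) := rfl
    rw [sp_η_f, mul_one, e] at h2
    rw [h2, (form n F).add_left, add_sub_cancel_left, (form n F).smul_left]
    have h3 : (form n F).h ((frame n F).b (i, false)) ((frame n F).b (i, true)) = -1 :=
      (frame n F).hb_neg_self (i, true)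
    rw [h3]
    ring
  coL i hi v' hv' := by
    have hi' : i = ⟨n - 1, by omega⟩ := Fin.ext (by show i.val = n - 1; have := i.2; omega)
    rw [← hi']
    refine LE.h_b (frame n F) (hC n 1) ?_ (hC_neg 1) hv'
    unfold hC
    simp only [if_true]
    have h2 : (n : ℤ) = i.val + 1 := by have := i.2; omega
    rw [h2]
    push_cast
    linarith
  pvX i j hj hij := pv_X spσ (frame n F) (nx_ne (by have := j.2; omega)) _
  pvX0 i j hj hij := by
    have hi : (i : ℕ) + 1 < n := by have := j.2; omega
    refine pv_X0 (frame n F) (nx_ne hi) (ne_of_nat (Or.inr (by simp [neg]))) ?_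
    rw [nx_of_lt hi]
    exact ne_of_nat (Or.inl (by show n - 1 ≠ (i : ℕ) + 1; have := j.2; omega))
  pvZ i := by
    have e3 : ∀ s, (frame n F).Z (i, true) (adm (-s)) ((frame n F).b (i, false)) =
        (frame n F).b (i, false) + s • (frame n F).b (i, true) + s ^ 2 • 0 := fun s => by
      have := Z_sp_neg (i, true) (-s)
      rw [sp_η_t, mul_neg_one, _root_.neg_neg] at this
      rw [smul_zero, add_zero]
      exact this
    simp only [e3]
    exact PV.quad _ _ _

/-- **The square of a conjugacy class is `PSp`.** -/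
theorem main_psp {n : ℕ} (hn : 2 ≤ n) {F : Type*} [Field F] [Finite F] (hF : 9 ≤ Nat.card F) :
    ∃ c : Cfsg.PSp n F, ∀ g, ∃ x y, g = (x * c * x⁻¹) * (y * c * y⁻¹) := by
  classical
  obtain ⟨p, hpc⟩ := CharP.exists F
  have hpp : p.Prime := (CharP.char_is_prime_or_zero F p).resolve_right (CharP.char_ne_zero_of_finite F p)
  have : Fact p.Prime := ⟨hpp⟩
  have := Fintype.ofFinite F
  have hF' : 9 ≤ Fintype.card F := by rwa [Nat.card_eq_fintype_card] at hF
  have hsimple : IsSimpleGroup (Cfsg.PSp n F) := Cfsg.Agent.S0270.result n (by omega) (fun _ => by omega)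
  obtain ⟨t, ht, hpow⟩ := exists_gen hF
  have ht2 : t ^ 2 ≠ 1 := by
    have := hpow 2 (by norm_num) (by norm_num)
    exact_mod_cast this
  obtain ⟨a, ha⟩ : ∃ a : Fˣ, a = Units.mk0 t ht := ⟨_, rfl⟩
  have ha2 : (a : F) * a ≠ 1 := by
    rw [ha, Units.val_mk0, ← pow_two]; exact ht2
  have hiso : ∀ l : Fin n → Fˣ, td (frame n F) l ∈ isos (form n F) := fun l =>
    iso_td (frame n F) (WittU.amb_Sp.V0) spσ l
  refine mainC (by omega) (KInstSp.model n F) (WittU.amb_Sp) (p := p) hF (lstSp (F := F) (n := n) (by omega)) spσ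
    (m := n) (by omega) le_rfl (fun _ => a) (hiso _) (fun _ _ => rfl) (fun δ => ⟨fun i => dl δ i, hiso _, fun i => rfl⟩)
    ?_ ?_ (p0 := adm 1) one_ne_zero
  · rintro ⟨i, s⟩ ⟨j, s'⟩ - h
    refine ⟨?_, i.2, j.2⟩
    rintro (rfl : s = s')
    unfold ev at h
    cases s
    · simp only [Bool.false_eq_true, if_false] at h
      rw [← Units.val_mul, ← mul_inv, Units.val_inv_eq_inv_val, inv_eq_one] at h
      exact ha2 h
    · exact ha2 h
  · rintro ⟨i, s⟩ q hq
    have h1 := congrArg Frame.Adm.c hq
    rw [Frame.Adm.smul_c, spσ] at h1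
    have h2 : q.c = 0 := by
      by_contra h0
      have h3 := (mul_eq_right₀ h0).1 h1
      unfold ev at h3
      cases s
      · simp only [Bool.false_eq_true, if_false] at h3
        rw [← Units.val_mul, ← mul_inv, Units.val_inv_eq_inv_val, inv_eq_one] at h3
        exact ha2 h3
      · exact ha2 h3
    exact Frame.Adm.ext (sp_adm_w q) h2

end Cfsg.Agent.H155.TG.Wf
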